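import Cfsg.Agent.H629.PIndex
import Cfsg.Agent.H934.IdxPSU
import Cfsg.Agent.H794.PsuNotAb
import Cfsg.Agent.H216.StarDef

/-!
# Sylow `p`-subgroups of `PSU₃(q)` with centre of index `p²` (helper780, for S4595)
-/

set_option autoImplicit false

namespace Cfsg.Agent.H780

open Cfsg Subgroup Cfsg.Agent.ClassicalGeometry.PSUAutBasic Cfsg.Agent.ClassicalGeometry.PSUAutSylow
  Cfsg.Agent.ClassicalGeometry.PSUAutPhi Cfsg.Agent.ClassicalGeometry.PSUAutSemi
  Cfsg.Agent.LieClassical.HermSiegel Cfsg.Agent.LieClassical.HermBasic Cfsg.Agent.LieClassical.HermGen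
open scoped commutatorElement

/-- The commutator subgroup of a suitable Sylow `p`-subgroup of `PSU_n(q)` has order at least `q`. -/
theorem psu_commutator {F : Type*} [Field F] [Fintype F] {p q n : ℕ} [hp : Fact p.Prime] [CharP F p]
    (hF : Fintype.card F = q ^ 2) (hn : 3 ≤ n) :
    ∃ T : Sylow p (PSU n F q), q ≤ Nat.card (⁅(T : Subgroup (PSU n F q)), (T : Subgroup (PSU n F q))⁆ :
      Subgroup (PSU n F q)) := by
  have : Finite (PSU n F q) := Quotient.finite _
  obtain ⟨e, f, H⟩ := exists_frame (n := n) hF (by omega)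
  have he0 : e ≠ 0 := by
    rintro rfl
    have := H.ef
    simp [hermForm] at this
  have hP := isPGroup_siegG hF p H.ee
  obtain ⟨w, hw, hw0⟩ : ∃ w ∈ coordSub F n (n - 2), w ≠ 0 := by
    refine ⟨bas F n ⟨0, by omega⟩, (bas F n ⟨0, by omega⟩).2, ?_⟩
    intro h0
    exact bas_ne_zero (F := F) (i := ⟨0, by omega⟩) (show (0 : ℕ) < n - 2 by omega) (Subtype.ext h0)
  obtain ⟨μ, h⟩ := exists_isSiegel hF H hw
  have hs : siegel hF e w μ h ∈ siegG hF e H.ee := ⟨w, μ, h, rfl⟩
  have hst : siegel hF e w μ h ∉ transvG hF e H.ee := by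
    intro h1
    obtain ⟨ν, hν, h2⟩ := mem_transvG.1 h1
    exact hw0 (siegel_inj hF H hw (zero_mem _) h (isSiegel_zero H.ee hν) h2).1
  obtain ⟨T, hT⟩ := (hP.map (pr n F q)).exists_le_sylow
  refine ⟨T, ?_⟩
  have hyp := H934.IdxPSU.hyp hF he0 H.ee
  -- the transvections are commutators
  have h1 : (transvG hF e H.ee).map (pr n F q) ≤ ⁅(T : Subgroup (PSU n F q)), (T : Subgroup (PSU n F q))⁆ := by
    rintro _ ⟨z, hz, rfl⟩
    have hz' : z ∈ siegG hF e H.ee := transvG_le_siegG hF H.ee hz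
    obtain ⟨⟨y, hy⟩, -, hyz⟩ := hyp.special ⟨_, hs⟩ (Subgroup.mem_top _)
      (fun h => hst h) ⟨z, hz'⟩ hz
    have h2 := congrArg Subtype.val hyz
    have h3 : siegel hF e w μ h * y * (siegel hF e w μ h)⁻¹ * y⁻¹ = z := h2
    rw [← h3, map_mul, map_mul, map_mul, map_inv, map_inv]
    exact commutator_mem_commutator (hT (mem_map_of_mem _ hs)) (hT (mem_map_of_mem _ hy))
  refine le_trans ?_ (Nat.card_le_card_of_injective _ (inclusion_injective h1))
  have hinj : Function.Injective (fun z : transvG hF e H.ee =>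
      (⟨pr n F q z, mem_map_of_mem _ z.2⟩ : (transvG hF e H.ee).map (pr n F q))) := by
    intro a b hab
    have pel : ∀ x ∈ siegG hF e H.ee, ∃ k, x ^ p ^ k = 1 := by
      intro x hx
      obtain ⟨k, hk⟩ := hP ⟨x, hx⟩
      exact ⟨k, congrArg Subtype.val hk⟩
    obtain ⟨k, hk⟩ := pel _ (transvG_le_siegG hF H.ee a.2)
    obtain ⟨l, hl⟩ := pel _ (transvG_le_siegG hF H.ee b.2)
    exact Subtype.ext (eq_of_pr_eq hF hn hk hl (congrArg Subtype.val hab))
  exact (H934.IdxPSU.card_transvG hF he0 H.ee).trans (Nat.card_le_card_of_injective _ hinj)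

/-- **Piece of S4595.** -/
theorem psu_index {G : Type*} [Group G] [Finite G] {F : Type} [Field F] [Fintype F] {p q : ℕ}
    [hp : Fact p.Prime] [CharP F p] (hp2 : p ≠ 2) (hF : Fintype.card F = q ^ 2) (e : G ≃* Cfsg.PSU 3 F q)
    (P : Sylow p G) (hZ : (Subgroup.center (P : Subgroup G)).index = p ^ 2)
    (hna : ¬ IsMulCommutative (P : Subgroup G)) : Nat.card (P : Subgroup G) = p ^ 3 := by
  have hfin : Finite (PSU 3 F q) := Quotient.finite _
  obtain ⟨T, hT⟩ := psu_commutator (p := p) (n := 3) hF le_rfl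
  -- the Sylow subgroups are isomorphic
  let P' : Sylow p (PSU 3 F q) := P.mapSurjective (f := e.toMonoidHom) e.surjective
  have e1 : (P : Subgroup G) ≃* (P' : Subgroup (PSU 3 F q)) := e.subgroupMap (P : Subgroup G)
  have e2 : (P' : Subgroup (PSU 3 F q)) ≃* (T : Subgroup (PSU 3 F q)) := Sylow.equiv P' T
  let i : (P : Subgroup G) ≃* (T : Subgroup (PSU 3 F q)) := e1.trans e2
  have h1 : Nat.card (commutator (P : Subgroup G)) = p := H629.PIndex.card_commutator hna hZ
  have h2 : Nat.card (commutator (T : Subgroup (PSU 3 F q))) = p := by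
    have h3 : (commutator (P : Subgroup G)).map i.toMonoidHom = commutator (T : Subgroup (PSU 3 F q)) := by
      rw [commutator_def, commutator_def, map_commutator, ← MonoidHom.range_eq_map,
        MonoidHom.range_eq_top.2 i.surjective]
    rw [← h3, Nat.card_congr (Subgroup.equivMapOfInjective _ i.toMonoidHom i.injective).symm.toEquiv, h1]
  have h4 : Nat.card (⁅(T : Subgroup (PSU 3 F q)), (T : Subgroup (PSU 3 F q))⁆ :
      Subgroup (PSU 3 F q)) = p := by
    have h5 : (commutator (T : Subgroup (PSU 3 F q))).map (T : Subgroup (PSU 3 F q)).subtype =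
        ⁅(T : Subgroup (PSU 3 F q)), (T : Subgroup (PSU 3 F q))⁆ := by
      rw [commutator_def, map_commutator, ← MonoidHom.range_eq_map, Subgroup.range_subtype]
    rw [← h5, Nat.card_congr (Subgroup.equivMapOfInjective _ _ (Subgroup.subtype_injective _)).symm.toEquiv, h2]
  rw [h4] at hT
  -- `q = p`
  have hqp : q = p := by
    obtain ⟨k, -, hk⟩ := FiniteField.card F p
    rw [hF] at hk
    have h6 : q ∣ p ^ (k : ℕ) := by rw [← hk]; exact dvd_pow_self q two_ne_zero
    obtain ⟨j, -, rfl⟩ := (Nat.dvd_prime_pow hp.out).1 h6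
    have hj : j ≠ 0 := by
      rintro rfl
      have h7 := Fintype.one_lt_card (α := F)
      rw [hF] at h7
      simp at h7
    have h8 : p ^ j ≤ p ^ 1 := by rwa [pow_one]
    have h9 := (Nat.pow_le_pow_iff_right hp.out.one_lt).1 h8
    have : j = 1 := by omega
    rw [this, pow_one]
  subst hqp
  rw [Nat.card_congr i.toEquiv]
  exact H216.StarDef.card_sylow_psu hF T

end Cfsg.Agent.H780
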